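import Cfsg.Agent.H716.FC.C6x
import Cfsg.Agent.H961.FC.C6Lift

/-!
# S5764: extraspecial type normalizers, `n ≥ 7` (helper716)
-/

set_option autoImplicit false

namespace Cfsg.Agent.H716.FC
open Cfsg.Agent.H198.FC Module

universe u v

/-- `StmtC6` for `n ≥ 7` -/
theorem c6_ge7 (hSN : StmtSN.{u, v}) (hSNc : StmtSNcor.{u, v})
    (K : Type u) [Field K] [Finite K] (V : Type v) [AddCommGroup V] [Module K V] [Module.Finite K V]
    (S : Subgroup (Equiv.Perm (R K V))) (hSR : S ≤ RA K V) (hS : Group.IsSolvable S)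
    (A : Subgroup (Equiv.Perm (R K V))) (r a : ℕ) (hD : C6Data S A r a)
    (hn : 7 ≤ finrank K V) : Five S := by
  obtain ⟨x, hx1, hx, -⟩ := c6x hSR hD hn
  exact Cfsg.Agent.H961.FC.five_of hSN hSNc hD hSR hS x hx1 hx

/-- `StmtC6` for `n = 7` and `n ≥ 9` -/
theorem c6_big (hSN : StmtSN.{u, v}) (hSNc : StmtSNcor.{u, v})
    (K : Type u) [Field K] [Finite K] (V : Type v) [AddCommGroup V] [Module K V] [Module.Finite K V]
    (S : Subgroup (Equiv.Perm (R K V))) (hSR : S ≤ RA K V) (hS : Group.IsSolvable S)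
    (A : Subgroup (Equiv.Perm (R K V))) (r a : ℕ) (hD : C6Data S A r a)
    (hn : finrank K V = 7 ∨ 9 ≤ finrank K V) : Five S :=
  c6_ge7 hSN hSNc K V S hSR hS A r a hD (by omega)

end Cfsg.Agent.H716.FC
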