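import Cfsg.Agent.H716.FC.UCore
import Cfsg.Agent.H886.FC.ClassB
import Cfsg.Agent.H563.FC.Inv
import Cfsg.Agent.H563.FC.MT
import Cfsg.Agent.H786.FC.Parts

/-!
# S5764, extraspecial type normalizers, unitary groups, `n = 2^m ≥ 4`, `-1` a square in the fixed field (helper716)
-/

set_option autoImplicit false

namespace Cfsg.Agent.H716.FC
open Cfsg.Agent.H198.FC Module

universe u v

section fields

variable {K : Type u} [Field K]

/-- generators of the fixed field -/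
theorem exists_gen0 [Finite K] (τ : K ≃+* K) : ∃ κ : K, τ κ = κ ∧ κ ≠ 0 ∧
    ∀ x : K, τ x = x → x ≠ 0 → ∃ k : ℤ, x = κ ^ k := by
  obtain ⟨g, hg⟩ := IsCyclic.exists_generator (α := (Cfsg.Agent.H563.FC.K0 τ)ˣ)
  refine ⟨((g : Cfsg.Agent.H563.FC.K0 τ) : K), (g : Cfsg.Agent.H563.FC.K0 τ).2,
    fun h => g.ne_zero (Subtype.ext h), fun a ha h0 => ?_⟩
  have hu : IsUnit (⟨a, ha⟩ : Cfsg.Agent.H563.FC.K0 τ) := IsUnit.mk0 _ fun h => h0 (congrArg Subtype.val h)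
  obtain ⟨u, hu⟩ := hu
  obtain ⟨n, hn⟩ := Subgroup.mem_zpowers_iff.1 (hg u)
  refine ⟨n, ?_⟩
  have h2 : ((u : Cfsg.Agent.H563.FC.K0 τ) : K) = a := by rw [hu]
  rw [← h2, ← hn]
  push_cast
  rfl

variable {τ : K ≃+* K} {κ : K} (hκτ : τ κ = κ) (hκ0 : κ ≠ 0)
  (hκ : ∀ x : K, τ x = x → x ≠ 0 → ∃ k : ℤ, x = κ ^ k)

include hκτ hκ0 hκ

theorem scale0 {s : K} (hs : s ≠ 0) (hτs : τ s = s) : ∃ c : K, τ c = c ∧ c ≠ 0 ∧ (c * c * s = 1 ∨ c * c * s = κ) := by
  obtain ⟨k, hk⟩ := hκ s hτs hs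
  rcases Int.even_or_odd' k with ⟨j, hj | hj⟩
  · refine ⟨κ ^ (-j), by rw [map_zpow₀, hκτ], zpow_ne_zero _ hκ0, Or.inl ?_⟩
    rw [hk, ← zpow_add₀ hκ0, ← zpow_add₀ hκ0, hj]
    have : -j + -j + 2 * j = 0 := by ring
    rw [this, zpow_zero]
  · refine ⟨κ ^ (-j), by rw [map_zpow₀, hκτ], zpow_ne_zero _ hκ0, Or.inr ?_⟩
    rw [hk, ← zpow_add₀ hκ0, ← zpow_add₀ hκ0, hj]
    have : -j + -j + (2 * j + 1) = 1 := by ring
    rw [this, zpow_one]

omit hκτ hκ0 in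
theorem sig_id0 (σ : K →+* K) (h : σ κ = κ) (x : K) (hx : τ x = x) : σ x = x := by
  by_cases h0 : x = 0
  · rw [h0, map_zero]
  obtain ⟨k, rfl⟩ := hκ x hx h0
  rw [map_zpow₀, h]

theorem sig_neg0 (h2 : (2 : K) ≠ 0) (σ : K →+* K) : σ κ ≠ -κ := by
  intro h
  have h1 : ∀ x : K, τ x = x → x ≠ 0 → σ x = x ∨ σ x = -x := by
    intro x hx hx0
    obtain ⟨k, rfl⟩ := hκ x hx hx0
    rw [map_zpow₀, h]
    rcases Int.even_or_odd k with hk | hk
    · left; exact hk.neg_zpow _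
    · right; exact hk.neg_zpow _
  rcases eq_or_ne (1 + κ) 0 with h0 | h0
  · have h3 : κ = -1 := by linear_combination h0
    rw [h3] at h
    simp only [map_neg, map_one, neg_neg] at h
    apply h2
    linear_combination -h
  · rcases h1 _ (by rw [map_add, map_one, hκτ]) h0 with h3 | h3
    · rw [map_add, map_one, h] at h3
      have h4 : (2 : K) * κ = 0 := by linear_combination -h3
      rcases mul_eq_zero.1 h4 with h5 | h5
      · exact h2 h5
      · exact hκ0 h5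
    · rw [map_add, map_one, h] at h3
      apply h2
      linear_combination h3

/-- square roots of elements of the fixed field -/
theorem sqrt0 (h2 : (2 : K) ≠ 0) (hτ2 : ∀ x, τ (τ x) = x) {e : K} (he : τ e ≠ e) {D : K} (hD0 : D ≠ 0)
    (hD : τ D = D) : ∃ d : K, d ≠ 0 ∧ d * d = D ∧ (τ d = d ∨ τ d = -d) := by
  obtain ⟨c, hcτ, hc0, hc⟩ := scale0 hκτ hκ0 hκ hD0 hD
  rcases hc with hc | hc
  · refine ⟨c⁻¹, inv_ne_zero hc0, ?_, Or.inl (by rw [map_inv₀, hcτ])⟩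
    field_simp
    linear_combination -hc
  · set e0 := e - τ e with he0
    have he1 : τ e0 = -e0 := by rw [he0, map_sub, hτ2]; ring
    have he2 : e0 ≠ 0 := fun h => he (sub_eq_zero.1 h).symm
    obtain ⟨d, hdτ, hd0, hd⟩ := scale0 hκτ hκ0 hκ (s := e0 * e0) (mul_ne_zero he2 he2) (by rw [map_mul, he1]; ring)
    rcases hd with hd | hd
    · exfalso
      have h3 : (d * e0) * (d * e0) = 1 := by linear_combination hd
      have h4 : τ (d * e0) = -(d * e0) := by rw [map_mul, hdτ, he1]; ring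
      rcases mul_self_eq_one_iff.1 h3 with h5 | h5
      · rw [h5, map_one] at h4
        exact h2 (by linear_combination h4)
      · rw [h5, map_neg, map_one] at h4
        exact h2 (by linear_combination -h4)
    · refine ⟨c⁻¹ * (d * e0), mul_ne_zero (inv_ne_zero hc0) (mul_ne_zero hd0 he2), ?_, Or.inr ?_⟩
      · field_simp
        linear_combination hd - hc
      · rw [map_mul, map_mul, map_inv₀, hcτ, hdτ, he1]; ring

end fields

variable {K : Type u} [Field K] {V : Type v} [AddCommGroup V] [Module K V]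

namespace Dat

variable {A : Subgroup (Equiv.Perm (R K V))} {m : ℕ}

/-- the elements `η`, `ζ` -/
theorem exists_eta_zeta [Finite K] [Module.Finite K V] (h : Dat A 2 m) (hm : 2 ≤ m) {a b : (R K V)ˣ}
    (hN : Nor a b A) : ∃ η ∈ Lf A, (¬ ∃ s : K, (η : R K V) = s • (1 : R K V)) ∧ ∃ ζ ∈ Lf A, Cm (a : R K V) η ∧
      Cm (b : R K V) η ∧ Cm (a : R K V) ζ ∧ Cm (b : R K V) ζ ∧ An (η : R K V) ζ := by
  obtain ⟨η, hη, hηns, haη, hbη⟩ := h.exists_eta hm hN.ha hN.hb hN.hab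
  obtain ⟨ζ0, hζ0, hζη⟩ := h.exists_an hη hηns
  obtain ⟨w, hw, hw4, hw1, hw2⟩ := h.corr hN.ha hN.hb hN.hab hζ0
  have hwη : Cm (w : R K V) (η : R K V) := by
    rcases hw4 with rfl | rfl | rfl | rfl
    · exact (Cm.one (x := (η : R K V))).symm
    · exact haη
    · exact hbη
    · rw [Units.val_mul]; exact ((haη.symm).mul hbη.symm).symm
  exact ⟨η, hη, hηns, ζ0 * w, mul_mem hζ0 hw, haη, hbη, hw1, hw2, by
    rw [Units.val_mul]
    exact hζη.symm.mul_cm hwη.symm⟩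

section uni

variable [Finite K] [Module.Finite K V] {B : Cl K V} {st : Equiv.Perm (R K V)}

theorem st_smul (hst : ∀ X, B.Adj X (st X)) (s : K) (X : R K V) : st (s • X) = B.τ s • st X := by
  apply Cfsg.Agent.H886.FC.adj_unique B (hst _)
  intro v w
  rw [LinearMap.smul_apply, LinearMap.smul_apply, B.smul_left, B.smul_right, B.invol, hst]

theorem st_comm (hst : ∀ X, B.Adj X (st X)) {f : Equiv.Perm (R K V)} (hf : f ∈ RB B) : st * f = f * st := by
  apply Equiv.ext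
  intro X
  change st (f X) = f (st X)
  exact Cfsg.Agent.H886.FC.adj_unique B (hst _) ((hf.2 _ _).1 (hst X))

/-- skew and selfadjoint lifts -/
theorem exists_skew (h : Dat A 2 m) (h2 : ∃ e : K, B.τ e ≠ e) (hst : ∀ X, B.Adj X (st X)) (hst1 : st * st = 1)
    (hstR : st ∈ RA K V) (hstA : ∀ g ∈ A, st * g = g * st) {u : (R K V)ˣ} (hu : u ∈ Lf A) :
    (∃ v : (R K V)ˣ, v ∈ Lf A ∧ cj K V v = cj K V u ∧ (∃ c : K, (v : R K V) = c • (u : R K V)) ∧ st v = -v) ∧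
    (∃ v : (R K V)ˣ, v ∈ Lf A ∧ cj K V v = cj K V u ∧ (∃ c : K, (v : R K V) = c • (u : R K V)) ∧ st v = v) := by
  haveI := h.nontriv
  obtain ⟨e, he⟩ := h2
  obtain ⟨μ, hμ0, hμ⟩ := h.exists_rho hstR hstA hu
  have hμ1 : B.τ μ * μ = 1 := by
    have h3 : st (st u) = u := by
      have := congrArg (fun f : Equiv.Perm (R K V) => f u) hst1
      exact this
    rw [hμ, st_smul hst, hμ, smul_smul] at h3
    exact smul_inj_unit (x := u) (by rw [h3, one_smul])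
  have key : ∀ c : K, c ≠ 0 → ∀ ε : K, B.τ c * μ = ε * c →
      ∃ v : (R K V)ˣ, v ∈ Lf A ∧ cj K V v = cj K V u ∧ (∃ c : K, (v : R K V) = c • (u : R K V)) ∧
        st v = ε • (v : R K V) := by
    intro c hc ε hε
    obtain ⟨v, hv⟩ := exists_smul_unit u hc
    refine ⟨v, smul_mem_Lf hv hu, cj_eq_of' hv, ⟨c, hv⟩, ?_⟩
    rw [hv, st_smul hst, hμ, smul_smul, smul_smul, hε]
  constructor
  · have h3 : ∃ c : K, c ≠ 0 ∧ B.τ c * μ = -1 * c := by
      by_cases h4 : μ = 1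
      · refine ⟨e - B.τ e, sub_ne_zero.2 (Ne.symm he), ?_⟩
        rw [h4, map_sub, B.invol]; ring
      · refine ⟨1 - μ, sub_ne_zero.2 (Ne.symm h4), ?_⟩
        rw [map_sub, map_one, sub_mul, hμ1]; ring
    obtain ⟨c, hc, hc'⟩ := h3
    obtain ⟨v, hv1, hv2, hv3, hv4⟩ := key c hc _ hc'
    exact ⟨v, hv1, hv2, hv3, by rw [hv4, neg_smul, one_smul]⟩
  · have h3 : ∃ c : K, c ≠ 0 ∧ B.τ c * μ = 1 * c := by
      by_cases h4 : μ = -1
      · refine ⟨e - B.τ e, sub_ne_zero.2 (Ne.symm he), ?_⟩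
        rw [h4, map_sub, B.invol]; ring
      · refine ⟨1 + μ, fun h5 => h4 (by linear_combination h5), ?_⟩
        rw [map_add, map_one, add_mul, hμ1]; ring
    obtain ⟨c, hc, hc'⟩ := h3
    obtain ⟨v, hv1, hv2, hv3, hv4⟩ := key c hc _ hc'
    exact ⟨v, hv1, hv2, hv3, by rw [hv4, one_smul]⟩

/-- the squares of skew or selfadjoint lifts -/
theorem tau_sq (h : Dat A 2 m) (hst : ∀ X, B.Adj X (st X)) (hstR : st ∈ RA K V)
    (hstm : ∀ X Y, st (X * Y) = st Y * st X)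
    {u : (R K V)ˣ} (hus : st u = -u ∨ st u = u) {s : K} (hs : (u : R K V) * u = s • (1 : R K V)) : B.τ s = s := by
  haveI := h.nontriv
  have h1 : st ((u : R K V) * u) = (u : R K V) * u := by
    rw [hstm]
    rcases hus with h1 | h1 <;> rw [h1]
    simp
  rw [hs, st_smul hst, RA_one hstR] at h1
  exact smul_inj_unit (V := V) (x := 1) h1

/-- a skew involution -/
theorem exists_a_skew (h : Dat A 2 m) (hU : B.IsU) (hi : ∃ i : K, B.τ i = i ∧ i * i = -1)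
    (hst : ∀ X, B.Adj X (st X)) (hst1 : st * st = 1) (hstR : st ∈ RA K V)
    (hstm : ∀ X Y, st (X * Y) = st Y * st X) (hstA : ∀ g ∈ A, st * g = g * st) :
    ∃ a ∈ Lf A, (a : R K V) * a = 1 ∧ st a = -a ∧ ∃ b ∈ Lf A, An (a : R K V) b := by
  haveI := h.nontriv
  have h2 := h.two_ne
  obtain ⟨i, hiτ, hi⟩ := hi
  obtain ⟨κ, hκτ, hκ0, hκ⟩ := exists_gen0 B.τ
  obtain ⟨e, he⟩ := hU.1
  obtain ⟨u0, hu0, hu0n⟩ := h.exists_nonsc
  obtain ⟨v0, hv0, hv0u⟩ := h.exists_an hu0 hu0n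
  obtain ⟨-, u, hu, -, ⟨c, hcu⟩, hus⟩ := h.exists_skew ⟨e, he⟩ hst hst1 hstR hstA hu0
  obtain ⟨-, v, hv, -, ⟨d, hdv⟩, hvs⟩ := h.exists_skew ⟨e, he⟩ hst hst1 hstR hstA hv0
  have huv : An (u : R K V) v := by
    have : An (u0 : R K V) (v : R K V) := by rw [hdv]; exact hv0u.symm.smul _
    have h3 := this.symm.smul c
    rw [← hcu] at h3
    exact h3.symm
  obtain ⟨D1, hD10, hD1⟩ := h.sq_sc hu
  obtain ⟨D2, hD20, hD2⟩ := h.sq_sc hv
  have hτ1 := h.tau_sq hst hstR hstm (Or.inr hus) hD1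
  have hτ2 := h.tau_sq hst hstR hstm (Or.inr hvs) hD2
  obtain ⟨d1, hd10, hd1, hd1'⟩ := sqrt0 hκτ hκ0 hκ h2 B.invol he hD10 hτ1
  obtain ⟨d2, hd20, hd2, hd2'⟩ := sqrt0 hκτ hκ0 hκ h2 B.invol he hD20 hτ2
  have key : ∀ (w w' : (R K V)ˣ) (D d ε : K), w ∈ Lf A → w' ∈ Lf A → An (w : R K V) w' →
      (w : R K V) * w = D • (1 : R K V) → d ≠ 0 → d * d = D → st w = ε • (w : R K V) → B.τ d = -ε * d → ε * ε = 1 →
      ∃ a ∈ Lf A, (a : R K V) * a = 1 ∧ st a = -a ∧ ∃ b ∈ Lf A, An (a : R K V) b := by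
    intro w w' D d ε hw hw' hww hD hd0 hd hε hdτ hεε
    obtain ⟨a, ha⟩ := exists_smul_unit w (inv_ne_zero hd0)
    refine ⟨a, smul_mem_Lf ha hw, ?_, ?_, w', hw', ?_⟩
    · rw [ha, smul_mul_smul_comm, hD, smul_smul, ← hd]
      have : d⁻¹ * d⁻¹ * (d * d) = 1 := by field_simp
      rw [this, one_smul]
    · rw [ha, st_smul hst, hε, smul_smul, ← neg_smul, map_inv₀, hdτ]
      congr 1
      have hε0 : ε ≠ 0 := by
        rintro rfl
        rw [zero_mul] at hεε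
        exact zero_ne_one hεε
      field_simp
    · have h3 := hww.symm.smul d⁻¹
      rw [← ha] at h3
      exact h3.symm
  rcases hd1' with hd1' | hd1'
  swap
  · exact key u v D1 d1 1 hu hv huv hD1 hd10 hd1 (by rw [hus, one_smul]) (by rw [hd1']; ring) (by ring)
  rcases hd2' with hd2' | hd2'
  swap
  · exact key v u D2 d2 1 hv hu huv.symm hD2 hd20 hd2 (by rw [hvs, one_smul]) (by rw [hd2']; ring) (by ring)
  have hi0 : i ≠ 0 := by
    rintro rfl
    rw [zero_mul] at hi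
    exact one_ne_zero (neg_eq_zero.1 hi.symm)
  refine key (u * v) u (-(D1 * D2)) (i * (d1 * d2)) (-1) (mul_mem hu hv) hu ?_ ?_
    (mul_ne_zero hi0 (mul_ne_zero hd10 hd20)) ?_ ?_ ?_ (by ring)
  · rw [Units.val_mul]
    exact ((Cm.self (x := (u : R K V))).mul_an huv).symm
  · rw [Units.val_mul]
    calc (u : R K V) * v * (u * v) = u * (v * u) * v := by simp only [mul_assoc]
      _ = -((u * u) * (v * v)) := by rw [huv.symm, mul_neg, neg_mul]; simp only [mul_assoc]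
      _ = _ := by rw [hD1, hD2, smul_mul_smul_comm, one_mul, neg_smul]
  · rw [← hd1, ← hd2]
    linear_combination d1 * d2 * d1 * d2 * hi
  · rw [Units.val_mul, hstm, hus, hvs, huv.symm, neg_smul, one_smul]
  · rw [map_mul, map_mul, hiτ, hd1', hd2']; ring

end uni

end Dat

end Cfsg.Agent.H716.FC
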