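import Cfsg.Agent.H716.FC.Uni

/-!
# S5764, extraspecial type normalizers, unitary groups, `n = 2^m ≥ 4`, `-1` a square in the fixed field (helper716)
-/

set_option autoImplicit false

namespace Cfsg.Agent.H716.FC
open Cfsg.Agent.H198.FC Module

universe u v

variable {K : Type u} [Field K] {V : Type v} [AddCommGroup V] [Module K V]

namespace Dat

variable {A : Subgroup (Equiv.Perm (R K V))} {m : ℕ}

/-- **the unipotent isometry** -/
theorem uni_I [Finite K] [Module.Finite K V] {B : Cl K V} {S : Subgroup (Equiv.Perm (R K V))} (hS : S ≤ RB B)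
    (hC : C6Data S A 2 m) (hm : 2 ≤ m) (hU : B.IsU) (hi : ∃ i : K, B.τ i = i ∧ i * i = -1) :
    ∃ x : (R K V)ˣ, LinearMap.det (x : R K V) = 1 ∧ B.Isom (x : R K V) ∧
      ∀ f ∈ S, (∀ g ∈ A, f * g = g * f) → cj K V x * f * (cj K V x)⁻¹ ∈ S → f = 1 := by
  classical
  have h : Dat A 2 m := Dat.of hC
  have hAS : A ≤ S := hC.2.2.2.1
  have hnorm : ∀ g ∈ S, ∀ f ∈ A, g * f * g⁻¹ ∈ A := hC.2.2.2.2.2.2.2.2.2.1
  haveI := h.nontriv
  haveI : Finite (R K V) := finite_R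
  haveI : Fintype A := Fintype.ofFinite A
  have h2 := h.two_ne
  obtain ⟨st, hst, hst1, hstR, hstm⟩ := Cfsg.Agent.H886.FC.exists_st B
  have hstA : ∀ g ∈ A, st * g = g * st := fun g hg => st_comm hst (hS (hAS hg))
  obtain ⟨e, he⟩ := hU.1
  obtain ⟨κ, hκτ, hκ0, hκ⟩ := exists_gen0 B.τ
  obtain ⟨a, ha, haa, has, b0, hb0, hab0⟩ := h.exists_a_skew hU hi hst hst1 hstR hstm hstA
  have hsc : ∀ (u : (R K V)ˣ) (c : K), c ≠ 0 → B.τ c = c → u ∈ Lf A → st u = -u →
      ∃ v : (R K V)ˣ, (v : R K V) = c • (u : R K V) ∧ v ∈ Lf A ∧ st v = -v := by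
    intro u c hc hcτ hu hus
    obtain ⟨v, hv⟩ := exists_smul_unit u hc
    exact ⟨v, hv, smul_mem_Lf hv hu, by rw [hv, st_smul hst, hcτ, hus, smul_neg]⟩
  -- `b`
  have hb : ∃ b ∈ Lf A, An (a : R K V) b ∧ st b = -b ∧ ∃ D : K, (b : R K V) * b = D • (1 : R K V) ∧
      ∀ σ : K →+* K, σ D = D → ∀ x, B.τ x = x → σ x = x := by
    obtain ⟨⟨b1, hb1, -, ⟨c1, hc1⟩, hb1s⟩, -⟩ := h.exists_skew ⟨e, he⟩ hst hst1 hstR hstA hb0
    have hab1 : An (a : R K V) b1 := by rw [hc1]; exact hab0.smul _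
    obtain ⟨s, hs0, hs⟩ := h.sq_sc hb1
    have hsτ := h.tau_sq hst hstR hstm (Or.inl hb1s) hs
    obtain ⟨c, hcτ, hc0, hc⟩ := scale0 hκτ hκ0 hκ hs0 hsτ
    rcases hc with hc | hc
    · obtain ⟨b, hb, hbA, hbs⟩ := hsc b1 (κ * c) (mul_ne_zero hκ0 hc0) (by rw [map_mul, hκτ, hcτ]) hb1 hb1s
      refine ⟨b, hbA, by rw [hb]; exact hab1.smul _, hbs, κ * κ, ?_, ?_⟩
      · rw [hb, smul_mul_smul_comm, hs, smul_smul]
        congr 1
        calc κ * c * (κ * c) * s = κ * κ * (c * c * s) := by ring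
          _ = κ * κ := by rw [hc, mul_one]
      · intro σ hσ
        rw [map_mul] at hσ
        rcases mul_self_eq_mul_self_iff.1 hσ with h3 | h3
        · exact sig_id0 hκ σ h3
        · exact absurd h3 (sig_neg0 hκτ hκ0 hκ h2 σ)
    · obtain ⟨b, hb, hbA, hbs⟩ := hsc b1 c hc0 hcτ hb1 hb1s
      refine ⟨b, hbA, by rw [hb]; exact hab1.smul _, hbs, κ, ?_, fun σ hσ => sig_id0 hκ σ hσ⟩
      rw [hb, smul_mul_smul_comm, hs, smul_smul, hc]
  obtain ⟨b, hbA, hab, hbs, Db, hDb, hDb'⟩ := hb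
  have hN : Nor a b A := ⟨ha, hbA, haa, hab⟩
  obtain ⟨η, hη, hηns, ζ, hζ, haη, hbη, haζ, hbζ, hηζ⟩ := h.exists_eta_zeta hm hN
  -- `c`
  obtain ⟨⟨c1, hc1A, hc1j, ⟨c1s, hc1⟩, hc1s⟩, -⟩ := h.exists_skew ⟨e, he⟩ hst hst1 hstR hstA (mul_mem hbA hη)
  obtain ⟨t, ht0, ht⟩ := h.sq_sc hc1A
  have htτ := h.tau_sq hst hstR hstm (Or.inl hc1s) ht
  obtain ⟨d, hdτ, hd0, hd⟩ := scale0 hκτ hκ0 hκ ht0 htτ
  obtain ⟨c, hc, hcA, hcs⟩ := hsc c1 d hd0 hdτ hc1A hc1s
  have hcj : cj K V c = cj K V (b * η) := by rw [cj_eq_of' hc, hc1j]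
  have hac : An (a : R K V) c := by
    rw [hc, hc1, Units.val_mul]
    exact ((hab.mul_cm haη).smul _).smul _
  have hbc : Cm (b : R K V) c := by
    rw [hc, hc1, Units.val_mul]
    exact (((Cm.self (x := (b : R K V))).mul hbη).smul _).smul _
  have hbc' : cj K V b ≠ cj K V c := by
    rw [hcj, map_mul]
    intro h3
    exact hηns (cj_eq_one (left_eq_mul.1 h3))
  have hDc : (c : R K V) * c = (d * d * t) • (1 : R K V) := by
    rw [hc, smul_mul_smul_comm, ht, smul_smul]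
  have hDc' : ∀ σ : K →+* K, σ (d * d * t) ≠ -(d * d * t) := by
    intro σ hσ
    rcases hd with hd | hd
    · rw [hd, map_one] at hσ
      exact h2 (by linear_combination hσ)
    · rw [hd] at hσ
      exact sig_neg0 hκτ hκ0 hκ h2 σ hσ
  -- representatives
  obtain ⟨y0, hy0⟩ := h.exists_rep
  have hy1 : ∀ α : A, ∃ v : (R K V)ˣ, cj K V v = α ∧ st v = -v := by
    intro α
    obtain ⟨⟨v, hv, hvj, -, hvs⟩, -⟩ := h.exists_skew ⟨e, he⟩ hst hst1 hstR hstA (rep_mem hy0 α)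
    exact ⟨v, by rw [hvj, hy0], hvs⟩
  choose y1 hy1 hy1s using hy1
  let βb : A := ⟨cj K V b, hN.hb⟩
  let βc : A := ⟨cj K V c, hcA⟩
  have hβ : βb ≠ βc := fun hh => hbc' (congrArg (fun x : A => (x : Equiv.Perm (R K V))) hh)
  let y : A → (R K V)ˣ := Function.update (Function.update y1 βb b) βc c
  have hyb : y βb = b := by
    simp only [y]
    rw [Function.update_of_ne hβ, Function.update_self]
  have hyc : y βc = c := Function.update_self _ _ _
  have hyy : ∀ α : A, cj K V (y α) = α ∧ st (y α) = -(y α : R K V) := by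
    intro α
    by_cases h3 : α = βc
    · rw [h3, hyc]
      exact ⟨rfl, hcs⟩
    by_cases h4 : α = βb
    · rw [h4, hyb]
      exact ⟨rfl, hbs⟩
    simp only [y]
    rw [Function.update_of_ne h3, Function.update_of_ne h4]
    exact ⟨hy1 α, hy1s α⟩
  have hy : ∀ α : A, cj K V (y α) = α := fun α => (hyy α).1
  -- the unipotent element
  have hZ1 := ZZ_an hN y
  have hZ2 := ZZ_sq hN y
  have hst0 : st 0 = 0 := RA_zero hstR
  have hst11 : st 1 = 1 := RA_one hstR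
  have hsts : ∀ s : Finset A, st (∑ α ∈ s, (y α : R K V)) = -∑ α ∈ s, (y α : R K V) := by
    intro s
    induction s using Finset.induction_on with
    | empty => rw [Finset.sum_empty, hst0, neg_zero]
    | insert α s hα ih =>
      rw [Finset.sum_insert hα, hstR.1, ih, (hyy α).2]
      abel
  have hstZ : st (ZZ a b y) = -ZZ a b y := by
    have haW : An (a : R K V) (∑ α ∈ TT a b y, (y α : R K V)) := An.sum _ fun α hα => (mem_TT.1 hα).1
    unfold ZZ
    rw [hstm, hstR.1, hst11, has, hsts, mul_add, mul_one, mul_neg, neg_mul, neg_neg, add_mul, one_mul, neg_add, haW,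
      neg_neg]
  have e3 : (1 + ZZ a b y) * (1 - ZZ a b y) = 1 := by rw [add_mul, mul_sub, mul_sub, hZ2]; simp
  have e4 : (1 - ZZ a b y) * (1 + ZZ a b y) = 1 := by rw [sub_mul, mul_add, mul_add, hZ2]; simp
  let x : (R K V)ˣ := ⟨1 + ZZ a b y, 1 - ZZ a b y, e3, e4⟩
  refine ⟨x, det_one_add h2 hZ1 hZ2, ?_, ?_⟩
  · have h3 : st (x : R K V) = ((x⁻¹ : (R K V)ˣ) : R K V) := by
      change st (1 + ZZ a b y) = 1 - ZZ a b y
      rw [hstR.1, hst11, hstZ, sub_eq_add_neg]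
    intro v w
    have h4 := hst (x : R K V) v ((x : R K V) w)
    rw [h3, ← Module.End.mul_apply, Units.inv_mul, Module.End.one_apply] at h4
    exact h4
  intro f hfS hfA hfx
  have hfB := hS hfS
  have hmul : ∀ X Y, f (X * Y) = f X * f Y := hfB.1.2
  have hf : f ∈ RA K V := RP_le_RA hfB.1
  obtain ⟨hfa, hfT⟩ := h.core_auto hnorm hN hcA hac hbc hbc' hDc hDc' hy hyb hyc (x := x) rfl rfl hfS hf hmul hfA hfx
  have hfb : f b = b := by
    have := hfT _ (mem_TT_of hy hN.hb hN.hab Cm.self)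
    have h3 : y ⟨cj K V b, hN.hb⟩ = b := hyb
    rwa [h3] at this
  obtain ⟨σ, hσ⟩ := exists_sig hf
  have hσ0 : ∀ s, B.τ s = s → σ s = s := by
    apply hDb'
    have := h.rho_sq hf hσ (u := b) (ρ := 1) (by rw [hfb, one_smul]) hDb
    rw [← this]; ring
  let σ' : K ≃+* K := RingEquiv.ofBijective σ ⟨σ.injective, Finite.surjective_of_injective σ.injective⟩
  rcases Cfsg.Agent.H563.FC.eq_one_or_tau B.invol he (σ := σ') (fun s hs => hσ0 s hs) with h3 | h3
  · exact h.auto_one hN hy hyb hf hmul (fun s X => by rw [hσ]; congr 1; exact h3 s) hfa hfT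
  · exfalso
    have hf' : f * st ∈ RA K V := mul_mem hf hstR
    refine h.anti_contra hN hy hyb hf' ?_ ?_ ?_ hη hζ haη hbη haζ hbζ hηζ
    · intro X Y
      change f (st (X * Y)) = f (st Y) * f (st X)
      rw [hstm, hmul]
    · intro s X
      change f (st (s • X)) = s • f (st X)
      rw [st_smul hst, hσ]
      congr 1
      have h5 : σ (B.τ s) = B.τ (B.τ s) := h3 (B.τ s)
      rw [h5, B.invol]
    · intro α hα
      change f (st (y α)) = _
      have h5 : f (-(y α : R K V)) = -f (y α) := by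
        rw [eq_neg_iff_add_eq_zero, ← hf.1, neg_add_cancel, RA_zero hf]
      rw [(hyy α).2, h5, hfT α hα]

end Dat

/-- the unitary groups of dimension `≥ 4` (2-power), `-1` a square in the fixed field -/
theorem uni_FiveB_I [Finite K] [Module.Finite K V] {B : Cl K V} {S : Subgroup (Equiv.Perm (R K V))} (hS : S ≤ RB B)
    (hsol : Group.IsSolvable S) (hU : B.IsU) (hi : ∃ i : K, B.τ i = i ∧ i * i = -1)
    {A : Subgroup (Equiv.Perm (R K V))} {r m : ℕ} (hC : C6Data S A r m) (h4 : finrank K V = 4) : FiveB B S := by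
  have hr : r = 2 := by
    have h1 : 2 ∣ r ^ m := by rw [← hC.2.2.1, h4]; norm_num
    have h2 := Nat.prime_two.dvd_of_dvd_pow h1
    rcases (Nat.dvd_prime hC.1).1 h2 with h3 | h3
    · omega
    · exact h3.symm
  subst hr
  have hm : 2 ≤ m := by
    by_contra hcon
    have h1 : m = 1 ∨ m = 0 := by omega
    have h2 := hC.2.2.1
    rcases h1 with rfl | rfl <;> rw [h4] at h2 <;> norm_num at h2
  obtain ⟨x, hx1, hx2, hx⟩ := Dat.uni_I hS hC hm hU hi
  exact Cfsg.Agent.H563.FC.mtB hS hC hsol x hx1 hx2 hx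

end Cfsg.Agent.H716.FC
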